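/-
Integrality of the multiplicities of the eigenvalues of a strongly regular commuting graph.
-/
import Cfsg.Agent.Lib.Fi.TwType

set_option autoImplicit false

namespace CA.Tl

open Cfsg CA.Fi Matrix

theorem trace_nat {ι : Type*} [Fintype ι] [DecidableEq ι] {E : Matrix ι ι ℝ} (h : E * E = E) :
    ∃ n : ℕ, E.trace = n :=
  ⟨_, by
    rw [← Matrix.trace_toLin'_eq]
    exact ((LinearMap.isProj_range_iff_isIdempotentElem _).2 (show toLin' E * toLin' E = _ by
      rw [Module.End.mul_eq_comp, ← toLin'_mul, h])).trace⟩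

theorem par_eig {G : Type*} [Group G] {S : Set G} {v k l m : ℕ} (P : Par S v k l m) (hv : 0 < v)
    (hm : m < k) : (k : ℤ) * k = k + k * l + (v - 1 - k) * m ∧
      ∃ j : ℤ, ((l - m) ^ 2 + 4 * (k - m)) * j ^ 2 = ((v - 1) * (l - m) + 2 * k) ^ 2 := by
  classical
  have := P.fin.fintype
  have cv : (Fintype.card S : ℝ) = v := by rw [← P.hv, ← Nat.card_eq_fintype_card]; rfl
  have cnt : ∀ T ⊆ S, ∑ z : S, (if z.1 ∈ T then (1 : ℝ) else 0) = T.ncard := fun T hT => by
    rw [Finset.sum_boole, ← Set.ncard_coe_finset, ← Set.ncard_image_of_injective _ Subtype.val_injective]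
    congr 2
    ext x
    simpa using fun h => hT h
  let A : Matrix S S ℝ := of fun x y => if y.1 ∈ Dd S x.1 then 1 else 0
  let J : Matrix S S ℝ := of fun _ _ => 1
  have sy : ∀ x y : S, y.1 ∈ Dd S x.1 ↔ x.1 ∈ Dd S y.1 := fun x y =>
    ⟨fun h => mem_dd_symm h x.2, fun h => mem_dd_symm h y.2⟩
  have AA : A * A = (k : ℝ) • 1 + (l : ℝ) • A + (m : ℝ) • (J - 1 - A) := by
    ext x y
    have : (A * A) x y = (Dd S x.1 ∩ Dd S y.1).ncard := by
      rw [← cnt _ fun _ h => h.1.1, mul_apply]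
      refine Finset.sum_congr rfl fun z _ => ?_
      simp only [A, of_apply, sy z y, Set.mem_inter_iff, ite_zero_mul_ite_zero, mul_one]
    rw [this]
    by_cases e : x = y
    · rw [e, Set.inter_self, P.hk _ y.2]; simp [A, J]
    have e1 : y.1 ≠ x.1 := fun h => e (Subtype.ext h.symm)
    by_cases e' : Commute x.1 y.1
    · rw [P.hl _ x.2 _ ⟨y.2, e1, e'⟩]; simp [e, e1, e', A, J]
    · rw [P.hm _ x.2 _ y.2 e']; simp [e, e', A, J]
  have cn : ∀ x : S, ∑ z : S, (if z.1 ∈ Dd S x.1 then (1 : ℝ) else 0) = k := fun x => by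
    rw [← P.hk _ x.2, ← cnt _ fun _ h => h.1]
    exact Finset.sum_congr rfl fun _ _ => by congr
  have AJ : A * J = (k : ℝ) • J := by
    ext x y
    simp only [A, J, mul_apply, of_apply, mul_one, cn, Matrix.smul_apply, smul_eq_mul]
  have JA : J * A = (k : ℝ) • J := by
    ext x y
    simp only [A, J, mul_apply, of_apply, one_mul, sy _ y, cn, Matrix.smul_apply, smul_eq_mul, mul_one]
  have JJ : J * J = (v : ℝ) • J := by
    ext x y
    simp only [J, mul_apply, of_apply, mul_one, Matrix.smul_apply, smul_eq_mul, Finset.sum_const,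
      Finset.card_univ, nsmul_eq_mul, cv]
  obtain ⟨x, hx⟩ := Set.nonempty_of_ncard_ne_zero (s := S) (by rw [P.hv]; omega)
  have e0 : (k : ℝ) * k = k + k * l + (v - 1 - k) * m := by
    have := congrFun (congrFun (Matrix.mul_assoc A A J) ⟨x, hx⟩) ⟨x, hx⟩
    simp only [AA, AJ, add_mul, smul_mul_assoc, mul_smul_comm, sub_mul, one_mul, JJ] at this
    simp [J] at this
    linarith
  refine ⟨by exact_mod_cast e0, ?_⟩
  have hv' : (v : ℝ) ≠ 0 := by positivity
  have hm' : (m : ℝ) < k := by exact_mod_cast hm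
  obtain ⟨δ, d0, d2⟩ : ∃ δ : ℝ, 0 < δ ∧ δ ^ 2 = (l - m) ^ 2 + 4 * (k - m) :=
    ⟨_, Real.sqrt_pos.2 (by nlinarith [sq_nonneg ((l : ℝ) - m)]),
      Real.sq_sqrt (by nlinarith [sq_nonneg ((l : ℝ) - m)])⟩
  obtain ⟨s, hs⟩ : ∃ s : ℝ, δ = l - m - 2 * s := ⟨(l - m - δ) / 2, by ring⟩
  obtain ⟨c, hc⟩ : ∃ c : ℝ, c * v = k - s := ⟨(k - s) / v, by field_simp⟩
  have e1 : (k : ℝ) - m + s ^ 2 = -(δ * s) := by rw [hs] at d2 ⊢; linarith
  have e2 : (m : ℝ) - 2 * c * k + 2 * c * s + c * c * v = -(δ * c) :=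
    mul_right_cancel₀ hv' (by
      rw [hs] at e1 ⊢
      linear_combination (-2 * k + 2 * s + c * v + (k - s) + (l - m - 2 * s)) * hc - e0 - e1)
  obtain ⟨n, hn⟩ := trace_nat (E := δ⁻¹ • (A - s • 1 - c • J)) (by
    rw [smul_mul_smul_comm, mul_smul]
    congr 1
    rw [inv_smul_eq_iff₀ d0.ne']
    simp only [sub_mul, mul_sub, smul_mul_assoc, mul_smul_comm, one_mul, mul_one, AA, AJ, JA, JJ]
    linear_combination (norm := module) e1 • (1 : Matrix S S ℝ) - hs • A + e2 • J)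
  simp only [trace_smul, trace_sub, trace_one, smul_eq_mul, cv] at hn
  rw [show A.trace = 0 by simp [A, trace], show J.trace = v by simp [J, trace, ← cv],
    inv_mul_eq_iff_eq_mul₀ d0.ne', hc] at hn
  refine ⟨2 * n - (v - 1), Int.cast_injective (α := ℝ) ?_⟩
  push_cast
  rw [← d2, ← mul_pow, show δ * (2 * n - (v - 1)) = -((v - 1) * (l - m) + 2 * k) by
    linear_combination -2 * hn - (v - 1) * hs]
  ring

end CA.Tl
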