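/-
Recognition of the groups of type `M(24)` by the centralizer of an outer involution.
-/
import Cfsg.Agent.Lib.Tilde.Comp
import Cfsg.Agent.Lib.Tilde.Eig
import Cfsg.Agent.Lib.Fth.Base

set_option autoImplicit false
set_option linter.unusedSectionVars false
set_option linter.unusedVariables false

namespace CA.Tl

open Cfsg Subgroup CA.Fi

variable {G G' : Type*} [Group G] [Group G'] {D S : Set G} {S' : Set G'} {φ : G → G'}
  {K : Subgroup G} {a a' b b' c d e g p q r s s' t t' u v w x y z : G} {l : List G}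

/-- the properties used of a centreless class of type `M(23)` -/
structure Fc23 (S : Set G) : Prop where
  t : T23 S
  cz : ∀ g ∈ closure S, g ∈ centralizer S → g = 1
  ns : ∀ t ∈ S, ¬ SqIn S t
  sq : ∀ t ∈ S, ∀ l, Cq (Dd S t) l → 2 ≤ l.length → l.length ≤ 3 →
    SqIn (Dd S t) l.prod ∧ SqIn (Dd S t) (l.prod * t)
  lm : ∃ t, LM S23 S t

theorem f23_of [Finite G] (hD : IsThreeTranspositionGroup D) (hp : IsPrimitiveUnderConj D)
    (ht : IsOfTypeM23 G D) : Fc23 D := by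
  have hT := t23_of hD hp ht
  have k : ∀ t ∈ D, LocE (Fi.CE (Dd D t)) t (Dd D t) ∧ T22 (Fi.CE (Dd D t)) := fun t h => by
    obtain ⟨h1, h2, h3⟩ := desc23 hD hp ht h
    have e := dd_eq_cent hD ht.1 hT.stab hT.rel h
    refine ⟨⟨hD.1.1 t h, e, fun c hc _ => (cent_dd_iff hD ht.1 hT.tw num23 h).1 hc, ?_, _,
      h1.cov hD, ?_⟩, t22_of h1.grp h2 h3⟩
    · rw [← e, ← map_subtype_commutator, (qs_m23 hD hp ht h).1.commutator_eq_top,
        ← MonoidHom.range_eq_map, range_subtype]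
    · rw [pjt_eq (self_mem_dd hD ht.1 hT.rel h), pj_eq_one_iff]
      exact fun y hy => hy.2.2
  obtain ⟨m, hm⟩ := model23 hD hp ht
  refine ⟨hT, fun g _ => (cent_iff_of_group hD ht.1).1,
    fun t h ⟨r, _, e⟩ => (k t h).1.not_sq (hT.loc t h).invK r e, fun t h l hl h2 h3 => ?_, m, hm.lm⟩
  rcases (by omega : l.length = 2 ∨ l.length = 3) with e | e
  exacts [(k t h).1.sq_two (k t h).2 hl e, (k t h).1.sq_three (k t h).2 hl e]

theorem Fc23.cov (h : Fc23 S') (C : Cov φ S S') (inj : Set.InjOn φ (closure S)) : Fc23 S := by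
  have k : ∀ t ∈ S, ∀ x ∈ closure S, SqIn (Dd S' (φ t)) (φ x) → SqIn (Dd S t) x :=
    fun t ht x hx ⟨r, hr, e⟩ => by
      obtain ⟨r, hr', rfl⟩ := (C.dd ht).lift hr
      have m := closure_mono (fun _ h => h.1) hr'
      exact ⟨r, hr', inj (mul_mem m m) hx (by rw [C.mul _ m _ m, e])⟩
  refine ⟨C.t23 h.t, fun g hg hc => inj hg (one_mem _)
    ((h.cz _ (C.mem_closure hg) ((C.cent_iff hg).2 hc)).trans C.one.symm),
    fun t ht ⟨r, hr, e⟩ => h.ns _ (C.mem ht) ⟨φ r, C.mem_closure hr, by rw [← C.mul _ hr _ hr, e]⟩,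
    fun t ht l hl h2 h3 => ?_, lm_of_cov S23_OK C h.lm.choose_spec⟩
  have := h.sq _ (C.mem ht) _ (((C.dd ht).cq_map hl.mem).2 hl) (by simpa) (by simpa)
  have m := (hl.mono fun _ h => h.1).prod_mem
  rw [(C.dd ht).prod' hl.mem, ← C.mul _ m _ (subset_closure ht)] at this
  exact ⟨k t ht _ m this.1, k t ht _ (mul_mem m (subset_closure ht)) this.2⟩

theorem cov_conj_back (hS : Closed S) (g : G) :
    Cov (fun x => g⁻¹ * x * g) ((fun x => g * x * g⁻¹) '' S) S :=
  ⟨(cov_of_equiv (MulAut.conj g) hS).cl', hS, fun x _ y _ => by group,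
    by rintro _ ⟨x, hx, rfl⟩; simpa [mul_assoc] using hx, fun x _ y _ e => by simpa using e,
    fun x hx => ⟨_, ⟨x, hx, rfl⟩, by simp [mul_assoc]⟩⟩

theorem ext_cons {n : ℕ} (h : Ext S n) (hl : Cq S l) (hn : l.length < n) : ∃ u, Cq S (u :: l) := by
  obtain ⟨m, c, e⟩ := h.mono (k := l.length + 1) hn l hl (by omega)
  match m, e with
  | [u], _ => exact ⟨u, c.perm (List.perm_append_singleton u l)⟩
  | [], e => simp at e
  | _ :: _ :: _, e => simp at e

namespace Fc23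

variable (h : Fc23 S)
include h

theorem cl : Closed S := h.t.cl

theorem invol [Finite G] (hy : y ∈ closure S) (h2 : y * y = 1) :
    ∃ l, Cq S l ∧ l.length ≤ 3 ∧ l.prod = y := by
  obtain ⟨l, h1, h3, h4⟩ := h.t.invK y hy (h2 ▸ one_mem _)
  exact ⟨l, h1, h3, by
    rw [eq_inv_of_mul_eq_one_right (h.cz _ (mul_mem h1.prod_mem hy) h4), h1.prod_inv h.cl]⟩

theorem sq' (hl : Cq S l) (h2 : 2 ≤ l.length) (h3 : l.length ≤ 3) : SqIn S l.prod := by
  obtain ⟨u, c⟩ := ext_cons h.t.ext hl (by omega)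
  exact (h.sq u (cq_cons.1 c).1 l (cq_cons.1 c).2 h2 h3).1.mono fun _ h => h.1

theorem two_not (hc : Cq S [t, s]) : t * s ∉ S := fun k =>
  h.ns _ k (by simpa using h.sq' hc (by simp) (by simp))

theorem two_ne (hc : Cq S [t, s]) : t * s ≠ 1 := fun k =>
  (cq_two.1 hc).2.2.1 (by rw [eq_inv_of_mul_eq_one_right k, h.cl.inv' (cq_two.1 hc).1])

end Fc23

/-- the involutions of `K ∩ C(x)` which are not squares there -/
def Nsq (K : Subgroup G) (x : G) : Set G :=
  {t | t ∈ K ∧ Commute x t ∧ t * t = 1 ∧ ∀ r ∈ K, Commute x r → r * r ≠ t}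

theorem Fc23.ns_eq [Finite G] (h : Fc23 S) (hg : ∀ g, g ∈ closure S ↔ g ∈ K ∧ Commute x g) :
    Nsq K x = S := by
  refine Set.Subset.antisymm (fun y hy => ?_) fun t ht =>
    ⟨((hg t).1 (subset_closure ht)).1, ((hg t).1 (subset_closure ht)).2, h.cl.sq' ht,
      fun r h1 h2 e => h.ns t ht ⟨r, (hg r).2 ⟨h1, h2⟩, e⟩⟩
  obtain ⟨l, h1, h2, rfl⟩ := h.invol ((hg y).2 ⟨hy.1, hy.2.1⟩) hy.2.2.1
  match l, h2 with
  | [], _ => exact absurd (one_mul 1) (hy.2.2.2 1 (one_mem _) (Commute.one_right _))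
  | [t], _ => simpa using cq_one.1 h1
  | _ :: _ :: _, h2 =>
    obtain ⟨r, hr, e⟩ := h.sq' h1 (by simp) h2
    exact absurd e (hy.2.2.2 r ((hg r).1 hr).1 ((hg r).1 hr).2)

theorem Nsq.ne_one (ht : t ∈ Nsq K x) : t ≠ 1 := fun e =>
  ht.2.2.2 1 (one_mem _) (Commute.one_right _) (by rw [e, one_mul])

theorem Nsq.symm (ht : t ∈ Nsq K x) : t ∈ Nsq K (x * t) :=
  ⟨ht.1, ht.2.1.mul_left (Commute.refl t), ht.2.2.1, fun r hr hc e => ht.2.2.2 r hr (by
    simpa using hc.mul_left (e ▸ (Commute.refl r).mul_left (Commute.refl r) : Commute t r).inv_left) e⟩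

theorem Nsq.conj [K.Normal] (ht : t ∈ Nsq K x) (g : G) : g * t * g⁻¹ ∈ Nsq K (g * x * g⁻¹) :=
  ⟨Normal.conj_mem inferInstance t ht.1 g, (TT.commute_conj_iff g).2 ht.2.1,
    Inv.conj_mul_self ht.2.2.1 g, fun r hr hc e => ht.2.2.2 (g⁻¹ * r * g⁻¹⁻¹)
      (Normal.conj_mem inferInstance r hr _)
      (by simpa [mul_assoc] using (TT.commute_conj_iff g⁻¹).2 hc)
      (by rw [show g⁻¹ * r * g⁻¹⁻¹ * (g⁻¹ * r * g⁻¹⁻¹) = g⁻¹ * (r * r) * g by group, e]; group)⟩

theorem ns_image [K.Normal] (g x : G) :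
    (fun y => g * y * g⁻¹) '' Nsq K x = Nsq K (g * x * g⁻¹) :=
  Set.Subset.antisymm (by rintro _ ⟨y, hy, rfl⟩; exact Nsq.conj hy g) fun y hy =>
    ⟨g⁻¹ * y * g⁻¹⁻¹, by simpa [mul_assoc] using Nsq.conj hy g⁻¹, by group⟩

theorem ar3240 {v m : ℕ} (hm : m < 31671)
    (h : ((31671 : ℕ) : ℤ) * (31671 : ℕ) = (31671 : ℕ) + (31671 : ℕ) * (3510 : ℕ) +
      (v - 1 - (31671 : ℕ)) * m ∧ ∃ j : ℤ, (((3510 : ℕ) - m) ^ 2 + 4 * ((31671 : ℕ) - m)) * j ^ 2 =
        ((v - 1) * ((3510 : ℕ) - m) + 2 * (31671 : ℕ)) ^ 2) : m = 3240 := by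
  obtain ⟨h1, j, h2⟩ := h
  have k : ∀ a < 160, ∀ b < 200, (fun m : ℕ => m < 31671 → 891855360 % m = 0 →
      (fun Δ c : ℤ => Δ * (Nat.sqrt (c ^ 2 / Δ).toNat) ^ 2 = c ^ 2) ((3510 - m) ^ 2 + 4 * (31671 - m))
      ((31671 + (891855360 / m : ℕ)) * (3510 - m) + 63342) → m = 3240) (200 * a + b) := by
    decide +kernel
  replace k := k (m / 200) (by omega) (m % 200) (by omega)
  rw [Nat.div_add_mod] at k
  push_cast at h1 h2
  have e : (891855360 : ℤ) = m * (v - 1 - 31671) := by linarith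
  have m0 : (m : ℤ) ≠ 0 := by rintro e'; simp [e'] at e
  have e1 : (v : ℤ) - 1 = 31671 + (891855360 / m : ℕ) := by
    push_cast; rw [e, Int.mul_ediv_cancel_left _ m0]; ring
  refine k hm (Nat.mod_eq_zero_of_dvd (Int.natCast_dvd_natCast.1 ⟨_, e⟩)) ?_
  have p : (0 : ℤ) < (3510 - m) ^ 2 + 4 * (31671 - m) := by
    have : (m : ℤ) < 31671 := by exact_mod_cast hm
    nlinarith [sq_nonneg (3510 - (m : ℤ))]
  simp only
  rw [← e1, ← h2, Int.mul_ediv_cancel_left _ p.ne', ← Int.natAbs_sq j, ← Nat.cast_pow j.natAbs,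
    Int.toNat_natCast, Nat.sqrt_eq', Nat.cast_pow]

/-- the hypotheses of the recognition theorem -/
structure H24 (K : Subgroup G) (D : Set G) : Prop where
  idx : K.index = 2
  cj : ∀ g, ∀ x ∈ D, g * x * g⁻¹ ∈ D
  tr : ∀ x ∈ D, ∀ y ∈ D, ∃ g, g * x * g⁻¹ = y
  sq : ∀ x ∈ D, x * x = 1
  out : ∀ x ∈ D, x ∉ K
  f : ∀ x ∈ D, Fc23 (Nsq K x)
  gen : ∀ x ∈ D, ∀ g, g ∈ closure (Nsq K x) ↔ g ∈ K ∧ Commute x g
  base : ∃ d ∈ D, ∃ t ∈ Nsq K d, d * t ∈ D ∧
    ∀ g, Commute g t → g * d * g⁻¹ = d ∨ g * d * g⁻¹ = d * t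

namespace H24

variable (h : H24 K D)
include h

theorem flag (hx : x ∈ D) (ht : t ∈ Nsq K x) (hy : y ∈ D) (hs : s ∈ Nsq K y) :
    ∃ g, g * x * g⁻¹ = y ∧ g * t * g⁻¹ = s := by
  have := normal_of_index_eq_two h.idx
  obtain ⟨g, rfl⟩ := h.tr x hx y hy
  obtain ⟨k, hk, rfl⟩ := (h.f _ hy).t.tr _ (Nsq.conj ht g) s hs
  exact ⟨k * g, by rw [← conj_of_commute ((h.gen _ hy k).1 hk).2.symm]; group, by group⟩

theorem mul (hx : x ∈ D) (ht : t ∈ Nsq K x) : x * t ∈ D := by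
  obtain ⟨d, hd, s, hs, h1, -⟩ := h.base
  obtain ⟨g, rfl, rfl⟩ := h.flag hd hs hx ht
  simpa [mul_assoc] using h.cj g _ h1

theorem nrm (hx : x ∈ D) (ht : t ∈ Nsq K x) (hg : Commute g t) :
    g * x * g⁻¹ = x ∨ g * x * g⁻¹ = x * t := by
  obtain ⟨d, hd, s, hs, -, h1⟩ := h.base
  obtain ⟨k, rfl, rfl⟩ := h.flag hd hs hx ht
  have e : g * (k * d * k⁻¹) * g⁻¹ = k * (k⁻¹ * g * k * d * (k⁻¹ * g * k)⁻¹) * k⁻¹ := by group
  refine (h1 (k⁻¹ * g * k) (by simpa [mul_assoc] using (TT.commute_conj_iff k⁻¹).2 hg)).imp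
    (fun e' => ?_) fun e' => ?_ <;> rw [e, e']
  group

theorem uniq (hx : x ∈ D) (ht : t ∈ Nsq K x) (hy : y ∈ D) (hs : t ∈ Nsq K y) : y = x ∨ y = x * t := by
  obtain ⟨g, rfl, e⟩ := h.flag hx ht hy hs
  exact h.nrm hx ht (commute_of_conj e)

theorem cancel (hx : x ∈ D) (y : G) : x * (x * y) = y := Inv.mul_mul_cancel (h.sq x hx) y

theorem mul_mem (hx : x ∈ D) (hy : y ∈ D) : x * y ∈ K :=
  (mul_mem_iff_of_index_two h.idx).2 (by simp [h.out x hx, h.out y hy])

variable [Finite G]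

theorem two (hx : x ∈ D) (hc : Cq (Nsq K x) [t, s]) : t * s ∈ Nsq K (x * t) := by
  classical
  obtain ⟨ht, hs, hne, hts⟩ := cq_two.1 hc
  have hy := h.mul hx ht
  have hF := h.f _ hy
  have ht' := Nsq.symm ht
  obtain ⟨l, h1, h3, rfl⟩ := hF.invol ((h.gen _ hy s).2 ⟨hs.1, hs.2.1.mul_left hts⟩) hs.2.2.1
  have n : ¬ SqIn (Dd (Nsq K (x * t)) t) l.prod := fun ⟨r, hr, e⟩ => by
    have k := (h.gen _ hy r).1 (closure_mono (fun _ h => h.1) hr)
    exact hs.2.2.2 r k.1 (by simpa using k.2.mul_left (commute_of_cent self_cent_dd hr).inv_left) e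
  by_cases e : t ∈ l
  · have p := List.perm_cons_erase e
    have c := (cq_cons.1 (h1.perm p)).2
    have e1 := h1.prod_perm p
    have e2 := p.length_eq
    generalize l.erase t = m at c e1 e2
    match m, e2 with
    | [], _ => exact absurd (by simpa using e1) hne
    | [u], _ => simpa [e1, hF.cl.cancel ht'] using (cq_one.1 c).1
    | _ :: _ :: _, e2 =>
      refine absurd ?_ n
      rw [e1, List.prod_cons, (commute_of_cent self_cent_dd c.prod_mem).eq]
      exact (hF.sq t ht' _ c (by simp) (by simp at e2 ⊢; omega)).2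
  · have c : Cq (Dd (Nsq K (x * t)) t) l := ⟨h1.nodup, fun a ha => ⟨h1.mem a ha,
      fun e' => e (e' ▸ ha), ((h1.fix_iff hF.cl h3 ht').1 hts.symm a ha).symm⟩, h1.comm⟩
    match l, h3 with
    | [], _ => exact absurd rfl (Nsq.ne_one hs)
    | [u], _ =>
      rcases h.uniq hx hs hy (by simpa using cq_one.1 h1) with k | k
      · exact absurd (by simpa using k) (Nsq.ne_one ht)
      · exact absurd (mul_left_cancel k).symm hne
    | _ :: _ :: _, h3 => exact absurd (hF.sq t ht' _ c (by simp) h3).1 n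

theorem not_mem (hx : x ∈ D) (hc : Cq (Nsq K x) [t, s]) (hy : x * (t * s) ∈ D) (hu : u ∈ Nsq K x) :
    u ∉ Nsq K (x * (t * s)) := fun k => by
  rcases h.uniq hx hu hy k with e | e
  · exact (h.f x hx).two_ne hc (by simpa using e)
  · exact (h.f x hx).two_not hc (mul_left_cancel e ▸ hu)

theorem not22 (hx : x ∈ D) (hc : Cq (Nsq K x) [t, s]) (hy : x * (t * s) ∈ D)
    (hc' : Cq (Nsq K (x * (t * s))) [t', s']) : t' * s' ≠ t * s := fun e => by
  obtain ⟨ht, hs, hne, hts⟩ := cq_two.1 hc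
  have ht' := (cq_two.1 hc').1
  refine h.not_mem hx hc hy ?_ ht'
  rcases h.uniq (h.mul hx ht) (h.two hx hc) (h.mul hy ht') (by have := h.two hy hc'; rwa [e] at this) with k | k
  · rwa [show t' = s from by
      rw [← (h.f x hx).cl.inv' hs]
      exact eq_inv_of_mul_eq_one_right (by simpa [mul_assoc] using k)]
  · rwa [show t' = t from by
      rw [mul_assoc x t, (h.f x hx).cl.cancel ht, hts.eq] at k
      rw [← (h.f x hx).cl.inv' ht]
      exact eq_inv_of_mul_eq_one_right (by simpa [mul_assoc] using k)]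

theorem not2 (hx : x ∈ D) (hc : Cq (Nsq K x) [t, s]) : x * (t * s) ∉ D := fun hy => by
  obtain ⟨ht, hs, hne, hts⟩ := cq_two.1 hc
  have hF := h.f _ hy
  have mt : t ∈ closure (Nsq K (x * (t * s))) :=
    (h.gen _ hy t).2 ⟨ht.1, ht.2.1.mul_left ((Commute.refl t).mul_left hts.symm)⟩
  have ms : s ∈ closure (Nsq K (x * (t * s))) :=
    (h.gen _ hy s).2 ⟨hs.1, hs.2.1.mul_left (hts.mul_left (Commute.refl s))⟩
  have w2 : t * s * (t * s) = 1 := by simpa using hc.prod_sq (h.f x hx).cl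
  have key : ∀ u ∈ Nsq K (x * (t * s)), Commute (t * s) u → Commute t u := fun u hu e => by
    have c : Commute u x := by
      have := (hu.2.1.mul_left e.inv_left).symm
      rwa [mul_inv_cancel_right] at this
    have e1 : u * (x * t) * u⁻¹ = x * (u * t * u⁻¹) := by
      rw [← mul_assoc u, c.eq]; group
    rcases h.nrm (h.mul hx ht) (h.two hx hc) e.symm with k | k <;> rw [e1] at k
    · exact (commute_of_conj (mul_left_cancel k)).symm
    · rw [mul_assoc x, (h.f x hx).cl.cancel ht, mul_left_cancel_iff, hF.cl.inv' hu] at k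
      have e2 : u * (t * u * t⁻¹) = t * s := by
        rw [(h.f x hx).cl.inv' ht, hts.eq, ← k]; group
      refine absurd e2 (h.not22 hx hc hy (cq_two.2 ⟨hu, hF.cl.conj mt hu, fun e3 => ?_, ?_⟩))
      · exact (h.f x hx).two_ne hc (by rw [← e2, e3, hF.cl.sq' hu])
      · rw [← hF.cl.cancel hu (t * u * t⁻¹), e2]
        exact (Commute.refl u).mul_right e.symm
  obtain ⟨l, h1, h3, e⟩ := hF.invol (Subgroup.mul_mem _ mt ms) w2
  match l, h3 with
  | [], _ => exact (h.f x hx).two_ne hc e.symm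
  | [u], _ =>
    have := Nsq.symm (cq_one.1 h1)
    rw [List.prod_singleton] at e
    rw [e, mul_assoc, w2, mul_one] at this
    exact (h.f x hx).two_not hc this
  | [u, v], _ => exact h.not22 hx hc hy h1 (by simpa using e)
  | [a, b, c], _ =>
    obtain ⟨m, k1, k3, e'⟩ := hF.invol mt ht.2.2.1
    have k4 : ∀ z ∈ m, ∀ u ∈ Nsq K (x * (t * s)), (∀ y ∈ [a, b, c], Commute y u) → Commute z u :=
      fun z hz u hu hc => (k1.fix_iff hF.cl k3 hu).1
        (e' ▸ key u hu (e ▸ Commute.list_prod_left _ _ hc)) z hz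
    have k5 : ∀ z ∈ m, z ∈ [a, b, c] := fun z hz => by_contra fun hn => by
      obtain ⟨ha, hb, hc⟩ := cq_three.1 h1
      have P := ((hF.t.loc a ha).loc b hb).par
      have k := fun y hy => (k4 z hz y (h1.mem y hy) fun u hu => h1.comm u hu y hy).symm
      simp only [List.mem_cons, List.not_mem_nil, or_false, not_or, forall_eq_or_imp, forall_eq]
        at hn k
      have hz' : z ∈ Dd (Dd (Dd (Nsq K (x * (t * s))) a) b) c :=
        ⟨⟨⟨k1.mem z hz, hn.1, k.1⟩, hn.2.1, k.2.1⟩, hn.2.2, k.2.2⟩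
      have := (Set.ncard_le_ncard (s := Dd (Dd (Dd (Nsq K (x * (t * s))) a) b) c) (fun y hy => by
        by_cases e : y = z
        · exact Or.inl e
        · exact Or.inr ⟨hy, hy.1, e, k4 z hz y hy.1.1.1 (by simp [hy.1.1.2.2, hy.1.2.2, hy.2.2])⟩)
        ((Set.toFinite (Dd _ c ∩ Dd _ z)).insert z)).trans (Set.ncard_insert_le _ _)
      rw [P.hk c hc, P.hl c hc z hz'] at this
      omega
    match m, k3 with
    | [], _ => exact Nsq.ne_one ht e'.symm
    | [u], _ => exact h.not_mem hx hc hy ht (by simpa [← e'] using cq_one.1 k1)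
    | [u, v], _ =>
      have c1 : Cq (Nsq K (x * s)) [s, s * t] := cq_two.2 ⟨Nsq.symm hs,
        h.two hx (hc.perm (List.Perm.swap _ _ _)), by simpa using Nsq.ne_one ht,
        (Commute.refl s).mul_right hts.symm⟩
      have e1 : x * s * (s * (s * t)) = x * (t * s) := by
        rw [(h.f x hx).cl.cancel hs, mul_assoc, hts.eq]
      exact h.not22 (h.mul hx hs) c1 (e1 ▸ hy) (e1 ▸ k1)
        (by rw [(h.f x hx).cl.cancel hs]; simpa using e')
    | [u, v, w], _ =>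
      have := k1.prod_perm ((List.subperm_of_subset k1.nodup k5).perm_of_length_le (by simp))
      rw [e, e'] at this
      exact Nsq.ne_one hs (by simpa using this)

theorem mem_ns (hx : x ∈ D) (hy : y ∈ Dd D x) : x * y ∈ Nsq K x := by
  have hF := h.f x hx
  obtain ⟨l, h1, h3, e⟩ := hF.invol ((h.gen x hx _).2 ⟨h.mul_mem hx hy.1,
    (Commute.refl x).mul_right hy.2.2⟩) (by
      rw [mul_assoc, hy.2.2.symm.left_comm, h.sq y hy.1, mul_one, h.sq x hx])
  match l, h3 with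
  | [], _ => exact absurd (by rw [← h.cancel hx y, ← e]; simp) hy.2.1
  | [u], _ => simpa [← e] using cq_one.1 h1
  | [u, v], _ =>
    exact h.not2 hx h1 (by rw [show u * v = x * y by simpa using e, h.cancel hx]; exact hy.1) |>.elim
  | [u, v, w], _ =>
    obtain ⟨hu, hv, hw⟩ := cq_three.1 h1
    refine absurd ?_ (h.not2 (h.mul hx hu) (cq_two.2 ⟨h.two hx (cq_two.2 ⟨hu, hv⟩),
      h.two hx (cq_two.2 ⟨hu, hw.1⟩), by simpa using hw.2.1,
      ((Commute.refl u).mul_right hw.1.2.2).mul_left (hv.2.2.symm.mul_right hw.2.2)⟩))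
    rw [mul_assoc u v, hv.2.2.symm.left_comm, hF.cl.cancel hu, mul_assoc,
      show u * (v * w) = x * y by simpa using e, h.cancel hx]
    exact hy.1

theorem mem_dd (hx : x ∈ D) (ht : t ∈ Nsq K x) : x * t ∈ Dd D x :=
  ⟨h.mul hx ht, by simpa using Nsq.ne_one ht, (Commute.refl x).mul_right ht.2.1⟩

theorem ord (hx : x ∈ D) : orderOf x = 2 :=
  Inv.orderOf_eq_two (h.sq x hx) fun e => h.out x hx (e ▸ one_mem _)

theorem cov (hx : x ∈ D) : ∃ φ : G → G, Cov φ (Dd D x) (Nsq K x) := by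
  classical
  have k : ∀ y z, Commute x y → x * y * (x * z) = y * z := fun y z e => by
    rw [mul_assoc, e.symm.left_comm, h.cancel hx]
  have hF := h.f x hx
  refine ⟨fun y => if y ∈ K then y else x * y, ⟨⟨fun y hy => h.ord hy.1, fun y hy z hz => ?_⟩,
    fun y hy z hz => ?_⟩, hF.cl, fun y hy z hz => ?_, fun y hy => ?_, fun y hy z hz e => ?_,
    fun t ht => ⟨_, h.mem_dd hx ht, ?_⟩⟩
  · exact k y z hy.2.2 ▸ hF.cl.set.2 _ (h.mem_ns hx hy) _ (h.mem_ns hx hz)
  · have := h.mem_dd hx (hF.cl.cl _ (h.mem_ns hx hy) _ (h.mem_ns hx hz) )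
    rwa [k y z hy.2.2, (hy.2.2.mul_right hz.2.2).symm.left_comm, h.cancel hx] at this
  · have c := commute_of_cent self_cent_dd hy
    simp only [mul_mem_iff_of_index_two h.idx]
    by_cases e1 : y ∈ K <;> by_cases e2 : z ∈ K <;> simp [e1, e2, mul_assoc, c.left_comm, h.cancel hx]
  · simpa [h.out y hy.1] using h.mem_ns hx hy
  · simpa [h.out y hy.1, h.out z hz.1] using e
  · simp [h.out _ (h.mul hx ht), h.cancel hx]

theorem t23 (hx : x ∈ D) : T23 (Dd D x) := (h.cov hx).choose_spec.t23 (h.f x hx).t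

theorem perm2 (ha : a ∈ D) (ha' : a' ∈ Dd D a) (hg : Commute g (a * a')) :
    g * a * g⁻¹ = a ∨ g * a * g⁻¹ = a' := h.cancel ha a' ▸ h.nrm ha (h.mem_ns ha ha') hg

theorem comm_of_even (ha : a ∈ D) (hb : b ∈ D) (he : ¬ Odd (orderOf (a * b))) : Commute a b := by
  obtain ⟨w, -, w2, w1, c1, c2, k1, k2⟩ := Inv.exists_central_of_even (h.sq a ha) (h.sq b hb) he
  have k : ∀ x ∈ D, Commute x w → ((∃ k : ℤ, (a * b) ^ k * a * ((a * b) ^ k)⁻¹ = w * x) ∨
      ∃ k : ℤ, (a * b) ^ k * b * ((a * b) ^ k)⁻¹ = w * x) → w ∈ Nsq K x := fun x hx c k => by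
    have := h.mem_ns hx (y := w * x) ⟨by
      rcases k with ⟨k, e⟩ | ⟨k, e⟩
      exacts [e ▸ h.cj _ a ha, e ▸ h.cj _ b hb], by simpa, c.mul_right (Commute.refl x)⟩
    rwa [← c.eq, h.cancel hx] at this
  rcases h.uniq ha (k a ha c1 k1) hb (k b hb c2 k2) with rfl | rfl
  exacts [Commute.refl _, (Commute.refl a).mul_right c1]

theorem fix2 (ha : a ∈ D) (hb : b ∈ D) (hb' : b' ∈ Dd D b) (hc : Commute a (b * b')) :
    Commute a b := by
  by_cases ho : Odd (orderOf (a * b))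
  swap
  · exact h.comm_of_even ha hb ho
  refine ((h.perm2 hb hb' hc).imp_left commute_of_conj).elim id fun e => ?_
  have e1 : (a * b) ^ 2 ^ 2 = 1 := by
    rw [Inv.inv_eq_self (h.sq a ha)] at e
    rw [show (a * b) ^ 2 ^ 2 = a * b * a * b * (a * b * a * b) by simp [pow_succ, mul_assoc], e,
      mul_assoc, hb'.2.2.left_comm, h.sq b hb, mul_one, h.sq b' hb'.1]
  have := (ho.coprime_two_right.pow_right 2).eq_one_of_dvd (orderOf_dvd_of_pow_eq_one e1)
  rw [eq_inv_of_mul_eq_one_left (orderOf_eq_one_iff.1 this)]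
  exact (Commute.refl b).inv_left

theorem not_ty2 (h1 : Cq D (u :: l)) (h3 : l.length = 3) (h2 : Cq D [u, p, q]) :
    [u, p, q].prod ≠ l.prod := fun e => by
  obtain ⟨hu, c1⟩ := cq_cons.1 h1
  have c2 := (cq_cons.1 h2).2
  have T := h.t23 hu
  have k : [p, q].prod * l.prod ∈ centralizer (Dd D u) := by
    rw [← e, List.prod_cons (a := u), (commute_of_cent self_cent_dd c2.prod_mem).eq, ← mul_assoc,
      c2.prod_sq T.cl, one_mul]
    exact self_cent_dd
  simpa [h3] using (c2.perm_of_iff c1 (T.norel.iff_of_prod T.cl c2 c1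
    (c2.cross_of_prod T.cl c1 (by simp) k) (by simp [h3]) k)).length_eq

theorem three (h1 : Cq D l) (h3 : l.length = 3) (h2 : Cq D [a, p, q]) (e : [a, p, q].prod = l.prod) :
    a ∈ l := by
  have ha := h2.mem a (by simp)
  have aw : Commute l.prod a := e ▸ h2.commute_prod (by simp)
  obtain ⟨u, c⟩ : ∃ u, Cq D (u :: l) := by
    match l, h3 with
    | x :: m, h3 =>
      obtain ⟨hx, c⟩ := cq_cons.1 h1
      obtain ⟨u, c'⟩ := ext_cons (h.t23 hx).ext c (by simp at h3; omega)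
      exact ⟨u, (cq_cons.2 ⟨hx, c'⟩).perm (List.Perm.swap _ _ _)⟩
  obtain ⟨hu, c'⟩ := cq_cons.1 c
  by_contra hn
  by_cases ho : Odd (orderOf (a * u))
  · obtain ⟨k, hk⟩ := Inv.conj_of_odd (h.sq a ha) (h.sq u hu) ho
    have := h2.conj (h.cj ((a * u) ^ k))
    have e1 := CA.Fi.prod_conj [a, p, q] ((a * u) ^ k)
    rw [e, conj_of_commute ((aw.symm.mul_left (commute_of_cent self_cent_dd c'.prod_mem)).zpow_left k)]
      at e1
    simp only [List.map_cons, List.map_nil, hk] at this e1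
    exact h.not_ty2 c h3 this e1
  · have au := h.comm_of_even ha hu ho
    by_cases e1 : a = u
    · exact h.not_ty2 c h3 (e1 ▸ h2) (e1 ▸ e)
    · exact h.not_ty2 (cq_cons.2 ⟨ha, h1.nodup, fun y hy => ⟨h1.mem y hy, fun e => hn (e ▸ hy),
        ((c'.fix_iff (h.t23 hu).cl h3.le ⟨ha, e1, au.symm⟩).1 aw y hy).symm⟩, h1.comm⟩) h3 h2 e

theorem cube (ha : a ∈ D) (hb : b ∈ D) (hab : ¬ Commute a b) : (a * b) ^ 3 = 1 := by
  have := normal_of_index_eq_two h.idx
  obtain ⟨b', hb'⟩ := (h.t23 hb).par.nonempty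
  have m := h.mem_ns hb hb'
  have loc : ∀ w ∈ D, Commute w a → Commute w (b * b') → (a * b) ^ 3 = 1 := fun w hw c1 c2 => by
    have c3 := h.fix2 hw hb hb' c2
    exact TT.cube (h.t23 hw).cl.set ⟨ha, fun e => hab (e ▸ c3), c1⟩
      ⟨hb, fun e => hab (e ▸ c1.symm), c3⟩ hab
  obtain ⟨w, -, w2, w1, c1, c2, k1, k2⟩ := Inv.exists_central_of_even (h.sq a ha) m.2.2.1 fun ho => by
    obtain ⟨k, e⟩ := Inv.conj_of_odd (h.sq a ha) m.2.2.1 ho
    exact h.out _ (h.cj _ a ha) (e ▸ m.1)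
  by_cases hw : w ∈ K
  · obtain ⟨k, e⟩ := k1.resolve_right fun ⟨k, e⟩ =>
      h.out a ha ((mul_mem_cancel_left hw).1 (e ▸ this.conj_mem _ m.1 _))
    have ha' : w * a ∈ Dd D a := ⟨e ▸ h.cj _ a ha, by simpa, c1.mul_right (Commute.refl a)⟩
    have e1 : a * (w * a) = w := by rw [← c1.eq, h.cancel ha]
    have s1 := (h.perm2 ha ha' (e1.symm ▸ c2)).resolve_left fun e =>
      hab (h.fix2 ha hb hb' (commute_of_conj e).symm)
    have s2 := (h.perm2 hb hb' c2.symm).resolve_left fun e =>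
      hab (h.fix2 hb ha ha' (e1.symm ▸ (commute_of_conj e).symm)).symm
    have bt : Commute b (b * b') := (Commute.refl b).mul_right hb'.2.2
    have ew : w = b * b' * a * (b * b')⁻¹ * a⁻¹ := by rw [s1]; group
    have et : b * b' = b * w * b * w⁻¹ := by rw [← s2]; group
    generalize b * b' = τ at *
    have a1 := Inv.inv_eq_self (h.sq a ha)
    have b1 := Inv.inv_eq_self (h.sq b hb)
    have w3 := Inv.inv_eq_self w2
    have t3 := Inv.inv_eq_self m.2.2.1
    have f1 : a * τ * a⁻¹ = w * τ := by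
      rw [← c2.eq, ew, t3, ← mul_assoc, ← mul_assoc, ← mul_assoc, m.2.2.1, one_mul]
    have f2 : b * w * b⁻¹ = w * τ := by
      rw [← c2.eq, et, b1]; group
    have f3 : a * (w * τ) * a⁻¹ = τ := by rw [← f1, a1]; simp [← mul_assoc, h.sq a ha, Inv.mul_cancel_right (h.sq a ha)]
    have f4 : b * (w * τ) * b⁻¹ = w := by rw [← f2, b1]; simp [← mul_assoc, h.sq b hb, Inv.mul_cancel_right (h.sq b hb)]
    have z : Commute ((a * b) ^ 3) w := commute_of_conj (by
      rw [show (a * b) ^ 3 * w * ((a * b) ^ 3)⁻¹ = a * (b * (a * (b * (a * (b * w * b⁻¹) * a⁻¹) * b⁻¹)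
        * a⁻¹) * b⁻¹) * a⁻¹ by simp [pow_succ, mul_assoc], f2, f3, conj_of_commute bt, f1, f4,
        conj_of_commute c1])
    obtain ⟨n, hn⟩ : Odd (orderOf (a * b)) := by_contra fun ho => hab (h.comm_of_even ha hb ho)
    have z1 : (((a * b) ^ 3) ^ 2) ^ (n + 1) = (a * b) ^ 3 := by
      rw [← pow_mul, ← pow_mul, show 3 * (2 * (n + 1)) = (2 * n + 1) * 3 + 3 by ring, pow_add, pow_mul,
        ← hn, pow_orderOf_eq_one, one_pow, one_mul]
    have z2 : (a * b) ^ 3 * a = a * ((a * b) ^ 3)⁻¹ := by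
      have := Inv.mul_zpow_left (h.sq a ha) (h.sq b hb) (-3)
      rw [neg_neg, zpow_neg] at this
      exact_mod_cast this.symm
    have z3 : Commute ((a * b) ^ 3) a := by
      rw [← z1]
      refine Commute.pow_left (commute_of_conj ?_) _
      generalize (a * b) ^ 3 = y at z
      rw [show y ^ 2 * a * (y ^ 2)⁻¹ = y * (y * a * y⁻¹) * y⁻¹ by simp [pow_two, mul_assoc]]
      rcases h.perm2 ha ha' (e1.symm ▸ z) with e | e
      · rw [e, e]
      · rw [e, show y * (w * a) * y⁻¹ = y * w * y⁻¹ * (y * a * y⁻¹) by group, e,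
          conj_of_commute z, Inv.mul_mul_cancel w2]
    rw [← z1, pow_two, mul_eq_one_iff_eq_inv.2 (mul_left_cancel (z3.symm.eq.trans z2)), one_pow]
  · obtain ⟨k, e⟩ := k1.resolve_left fun ⟨k, e⟩ => h.out _ (h.cj _ a ha)
      (by rw [e]; exact (mul_mem_iff_of_index_two h.idx).2 (by simp [hw, h.out a ha]))
    obtain ⟨j, e'⟩ := k2.resolve_right fun ⟨k, e⟩ =>
      hw ((mul_mem_cancel_right m.1).1 (e ▸ this.conj_mem _ m.1 _))
    have hc : w * (b * b') ∈ D := e' ▸ h.cj _ a ha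
    have key : ∀ x ∈ D, ∀ p ∈ D, ∀ q ∈ Dd D p, Commute x (p * q) → x * (p * q) = w → w ∉ D →
        Cq D [x, p, q] := fun x hx p hp q hq c e hn => by
      have c1 := h.fix2 hx hp hq c
      have c2 := h.fix2 hx hq.1 (mem_dd_symm hq hp) (hq.2.2.eq ▸ c)
      refine cq_three.2 ⟨hx, ⟨hp, ?_, c1⟩, ⟨hq.1, ?_, c2⟩, hq.2⟩ <;> rintro rfl <;> refine hn (e ▸ ?_)
      · exact (h.cancel hp q).symm ▸ hq.1
      · rwa [hq.2.2.eq, h.cancel hq.1]
    by_cases hn : w ∈ D
    · exact loc w hn c1.symm c2.symm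
    set g := (a * (b * b')) ^ k
    have e1 : g * b * g⁻¹ * (g * b' * g⁻¹) = w * a := by rw [← e]; group
    have q1 := key a ha _ (h.cj g b hb) (g * b' * g⁻¹) ⟨h.cj g b' hb'.1, by simpa using hb'.2.1,
      (TT.commute_conj_iff g).2 hb'.2.2⟩ (e1 ▸ c1.mul_right (Commute.refl a))
      (by rw [e1, ← c1.eq, h.cancel ha]) hn
    have q2 := key _ hc b hb b' hb' (c2.symm.mul_left (Commute.refl _))
      (Inv.mul_cancel_right m.2.2.1 w) hn
    exact absurd (q2.comm a (h.three q2 rfl q1 (by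
      simp only [List.prod_cons, List.prod_nil, mul_one]
      rw [e1, ← c1.eq, h.cancel ha, Inv.mul_cancel_right m.2.2.1])) b (by simp)) hab

theorem cl : Closed D :=
  ⟨⟨fun x => h.ord, fun a ha b hb => (em (Commute a b)).imp
    (Inv.commute_iff_sq (h.sq a ha) (h.sq b hb)).1 (h.cube ha hb)⟩,
    fun a ha b hb => by simpa [Inv.inv_eq_self (h.sq a ha)] using h.cj a b hb⟩

theorem closure_eq : closure D = ⊤ := by
  obtain ⟨d, hd, -⟩ := h.base
  have kk : ∀ g ∈ K, Commute d g → g ∈ closure D := fun g h1 h2 =>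
    (closure_le _).2 (fun t ht => h.cancel hd t ▸
      Subgroup.mul_mem _ (subset_closure hd) (subset_closure (h.mul hd ht))) ((h.gen d hd g).2 ⟨h1, h2⟩)
  refine eq_top_iff.2 fun g _ => ?_
  obtain ⟨k, hk, e⟩ : ∃ k ∈ closure D, k * d * k⁻¹ = g * d * g⁻¹ := by
    have hb := h.cj g d hd
    generalize g * d * g⁻¹ = b at hb
    by_cases e : Commute d b
    · by_cases e' : b = d
      · exact ⟨1, one_mem _, by simp [e']⟩
      obtain ⟨y, hy⟩ := ((h.t23 hd).loc b ⟨hb, e', e⟩).par.nonempty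
      exact ((h.t23 hy.1.1).tr d (mem_dd_symm hy.1 hd) b ⟨hb, hy.2.1.symm, hy.2.2.symm⟩).imp
        fun k hk => ⟨closure_mono (fun _ h => h.1) hk.1, hk.2⟩
    · exact ⟨d * b, Subgroup.mul_mem _ (subset_closure hd) (subset_closure hb), by
        rw [mul_inv_rev, h.cl.inv' hd, h.cl.inv' hb, h.cl.br hd hb e, mul_assoc _ b, h.cancel hb,
          mul_assoc, h.sq d hd, mul_one]⟩
  have c : Commute d (k⁻¹ * g) := (commute_of_conj (by
    rw [mul_inv_rev, show k⁻¹ * g * d * (g⁻¹ * k⁻¹⁻¹) = k⁻¹ * (g * d * g⁻¹) * k by group, ← e]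
    group)).symm
  rw [← mul_mem_cancel_left (inv_mem hk)]
  by_cases e : k⁻¹ * g ∈ K
  · exact kk _ e c
  · rw [← mul_mem_cancel_left (subset_closure hd)]
    exact kk _ ((mul_mem_iff_of_index_two h.idx).2 (by simp [e, h.out d hd]))
      ((Commute.refl d).mul_right c)

theorem center_eq : center G = ⊥ := by
  obtain ⟨d, hd, t, ht, h1, -⟩ := h.base
  refine eq_bot_iff.2 fun z hz => ?_
  have c : ∀ g, Commute g z := mem_center_iff.1 hz
  by_cases e : z ∈ K
  · exact (h.f d hd).cz z ((h.gen d hd z).2 ⟨e, c d⟩) fun y _ => c y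
  · have := (h.f d hd).cz (d * z) ((h.gen d hd _).2 ⟨(mul_mem_iff_of_index_two h.idx).2
      (by simp [e, h.out d hd]), (Commute.refl d).mul_right (c d)⟩)
      fun y hy => hy.2.1.symm.mul_right (c y)
    obtain ⟨g, hg⟩ := h.tr d hd _ h1
    rw [conj_of_commute (by simpa [eq_inv_of_mul_eq_one_right this] using c g)] at hg
    exact absurd (by simpa using hg) (Nsq.ne_one ht)

theorem mu (ha : a ∈ D) (hb : b ∈ D) (hab : ¬ Commute a b) : (Dd D a ∩ Dd D b).Nonempty := by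
  obtain ⟨b', hb'⟩ := (h.t23 hb).par.nonempty
  by_cases e : Commute a b'
  · exact ⟨b', ⟨hb'.1, fun e' => hab (e' ▸ hb'.2.2.symm), e⟩, hb'⟩
  have C := h.cl
  have q : Cq D [a, b * b' * a * (b * b')⁻¹] := cq_two.2 ⟨ha, h.cj _ a ha, fun e' =>
    C.ne_two hb hb'.1 ha hb'.2.1.symm (fun k => hab k.symm) (fun k => e k.symm) (commute_of_conj e'),
    C.commute_two hb hb'.1 ha hb'.2.2 (fun k => hab k.symm) fun k => e k.symm⟩
  have w2 := q.prod_sq C
  have key : ∀ b ∈ D, ∀ b' ∈ D, ¬ Commute a b → ¬ Commute a b' → Commute b b' →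
      a * (b * b' * a * (b * b')⁻¹) * b * (a * (b * b' * a * (b * b')⁻¹))⁻¹ = b' := by
    intro b hb b' hb' h1 h2 h3
    have e1 : b * b' * b = b' := by rw [h3.eq, mul_assoc, h.sq b hb, mul_one]
    calc _ = a * (b * b' * (a * ((b * b')⁻¹ * b * (b * b')⁻¹⁻¹) * a⁻¹) * (b * b')⁻¹) * a⁻¹ := by group
      _ = a * (b * b' * b * a * (b * b' * b)⁻¹) * a⁻¹ := by
        rw [conj_of_commute ((Commute.refl b).mul_left h3.symm).inv_left, C.inv' ha, C.br ha hb h1,
          mul_inv_rev _ b, C.inv' hb]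
        group
      _ = b' := by
        rw [e1, C.inv' hb', ← C.br ha hb' h2, C.inv' ha, mul_assoc a b', h.cancel ha, mul_assoc,
          h.sq a ha, mul_one]
  have k1 := key b hb b' hb'.1 hab e hb'.2.2
  have k2 := key b' hb'.1 b hb e hab hb'.2.2.symm
  rw [← hb'.2.2.eq] at k2
  have c := fun y hy => (q.fix_iff C (by simp) (u := y) hy).1
  simp only [List.prod_cons, List.prod_nil, mul_one] at w2 c
  generalize a * (b * b' * a * (b * b')⁻¹) = w at *
  have k : ∀ x ∈ Dd (Dd D b) b', w * x * w⁻¹ ∈ Dd (Dd D b) b' := fun x hx =>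
    ⟨⟨h.cj w x hx.1.1, k2 ▸ by simpa using hx.2.1, k2 ▸ (TT.commute_conj_iff w).2 hx.2.2⟩,
      k1 ▸ by simpa using hx.1.2.1, k1 ▸ (TT.commute_conj_iff w).2 hx.1.2.2⟩
  obtain ⟨y, hy, e⟩ := ((h.t23 hb).loc b' hb').fix (cov_conj' ((C.dd b).dd b') k fun x hx => by
    simpa [Inv.inv_eq_self w2] using k x hx) fun x _ => by
      simp [Inv.inv_eq_self w2, ← mul_assoc, w2, Inv.mul_cancel_right w2]
  exact ⟨y, ⟨hy.1.1, fun e' => hab (e' ▸ hy.1.2.2.symm),
    c y hy.1.1 (commute_of_conj e) a (by simp)⟩, hy.1⟩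

theorem type : IsThreeTranspositionClass D ∧ IsPrimitiveUnderConj D ∧ IsOfTypeM24 G D := by
  obtain ⟨d, hd, -⟩ := h.base
  have hG : IsThreeTranspositionGroup D := ⟨h.cl.set, h.cj, h.closure_eq⟩
  have hD := TT.class_of_group hG hd (h.tr d hd)
  have ne : ∀ a ∈ D, ∀ b ∈ D, ¬ Commute a b → (Dd D a ∩ Dd D b).ncard < 31671 :=
    fun a ha b hb e => by
      rw [← (h.t23 ha).par.hv]
      refine Set.ncard_lt_ncard (Set.inter_subset_left.ssubset_of_ne fun k => ?_)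
      obtain ⟨x, hx⟩ := h.mu ha hb e
      have := (h.t23 hx.1.1).par.hm a (mem_dd_symm hx.1 ha) b (mem_dd_symm hx.2 hb) e
      rw [← dd_mu, k, (h.t23 ha).par.hk x hx.1] at this
      omega
  have hp := prim_of_local hD h.center_eq (fun _ ha _ => h.mu ha)
    (fun a ha b hb => (h.t23 ha).par.exists_not_commute (by norm_num) hb)
    fun a ha b hb e => by rw [(h.t23 ha).par.hv]; exact (ne a ha b hb e).ne
  have hw := width_of hd (h.t23 hd).par.nonempty
  have R := Fth.Prim.r3 ⟨hG, hp, h.center_eq, hw⟩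
  obtain ⟨v, k, l, m, P⟩ := R.par
  obtain ⟨c, hc, e⟩ := R.nc d hd
  obtain ⟨x, hx⟩ := h.mu hd hc e
  obtain rfl : k = 31671 := (P.hk d hd).symm.trans (h.t23 hd).par.hv
  obtain rfl : l = 3510 := (P.hl d hd x hx.1).symm.trans (dd_dd D d x ▸ (h.t23 hd).par.hk x hx.1)
  have m1 : m < 31671 := P.hm d hd c hc e ▸ ne d hd c hc e
  obtain rfl : m = 3240 := ar3240 m1 (par_eig P (by have := P.card_Ad hd; omega) m1)
  obtain ⟨T1, h1⟩ := mdl22
  obtain ⟨τ1, l1⟩ := lev23 h1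
  obtain ⟨T0, h0⟩ := mdl23
  obtain ⟨τ, k⟩ := lev24 h0
  obtain ⟨t, ht⟩ := k.model (P := P24) pres23 rfl rfl rfl (cls24 h0) (ref := ref24)
    (a1 := ([], 10)) (a2 := ([], 11)) (by decide +kernel) (l1.pairT h0) hG hp hw h.center_eq
    (fun x hx => lm_of_cov S23_OK (h.cov hx).choose_spec (h.f x hx).lm.choose_spec) P.hm
  exact ⟨hD, hp, ht.type24⟩

end H24

/-- **Recognition of `M(24)`** -/
theorem type24_of_cent {X : Type*} [Group X] [Finite X] (G0 : Subgroup X) (hidx : G0.index = 2)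
    {d : X} (hd : orderOf d = 2) (hd0 : d ∉ G0) {F : Set ↥(G0 ⊓ centralizer ({d} : Set X))}
    (hF : IsThreeTranspositionClass F) (hp : IsPrimitiveUnderConj F) (ht : IsOfTypeM23 _ F)
    {t : ↥(G0 ⊓ centralizer ({d} : Set X))} (htF : t ∈ F) (hn : IsConj d (d * t))
    (hN : ∀ g ∈ G0, Commute g (t : X) → g * d * g⁻¹ = d ∨ g * d * g⁻¹ = d * t) :
    IsThreeTranspositionClass (conjugatesOf d) ∧ IsPrimitiveUnderConj (conjugatesOf d) ∧
      IsOfTypeM24 X (conjugatesOf d) := by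
  have := normal_of_index_eq_two hidx
  have hG := TT.class_group hF
  have gen : closure (Subtype.val '' F) = G0 ⊓ centralizer {d} := by
    rw [← coe_subtype, ← MonoidHom.map_closure, hG.2.2, ← MonoidHom.range_eq_map, range_subtype]
  have h1 : Fc23 (Subtype.val '' F) := (f23_of hG hp ht).cov (cov_bk (closed_of_group hG))
    fun x hx y hy e => by
      rw [gen] at hx hy
      exact congrArg Subtype.val ((bk_coe ⟨x, hx⟩).symm.trans (e.trans (bk_coe ⟨y, hy⟩)))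
  have gen' : ∀ g, g ∈ closure (Subtype.val '' F) ↔ g ∈ G0 ∧ Commute d g := fun g => by
    rw [gen, mem_inf, mem_cent_one, Commute.symm_iff]
  have e := h1.ns_eq gen'
  rw [← e] at h1 gen'
  refine H24.type (K := G0) ⟨hidx, fun g x hx => isConj_conj hx g,
    fun x hx y hy => isConj_iff.1 (hx.symm.trans hy), fun x hx => ?_, fun x hx k => ?_,
    fun x hx => ?_, fun x hx y => ?_, d, IsConj.refl d, t, e ▸ ⟨t, htF, rfl⟩, hn, fun g hg => ?_⟩
  any_goals obtain ⟨g, rfl⟩ := isConj_iff.1 hx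
  · exact Inv.conj_mul_self (Inv.mul_self_of_orderOf hd) g
  · exact hd0 (by simpa [mul_assoc] using this.conj_mem _ k g⁻¹)
  · exact ns_image (K := G0) g d ▸ h1.cov (cov_conj_back h1.cl g) fun x _ y _ e => by simpa using e
  · rw [← ns_image, show (fun y => g * y * g⁻¹) = (MulAut.conj g).toMonoidHom from rfl,
      ← MonoidHom.map_closure, mem_map_equiv, gen', ← TT.commute_conj_iff g]
    simp [mul_assoc, this.mem_comm_iff]
  · by_cases e : g ∈ G0
    · exact hN g e hg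
    · simpa [mul_assoc] using hN (g * d) ((mul_mem_iff_of_index_two hidx).2 (by simp [e, hd0]))
        (hg.mul_left (mem_cent_one.1 t.2.2).symm)

end CA.Tl
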