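/-
The Thompson subgroup of a 2-subgroup containing a base of a Fischer class.
-/
import Cfsg.Agent.Lib.Tilde.Loc23
import Cfsg.Agent.Lib.Loc.Repl

set_option autoImplicit false
set_option linter.unusedSectionVars false
set_option linter.unusedVariables false

namespace CA.Tl

open Cfsg Subgroup CA CA.Fi CA.Loc
open scoped commutatorElement

section Repl

variable {G : Type*} [Group G] [Finite G] {p : ℕ} [hp : Fact p.Prime] {S A B K L : Subgroup G}

/-- Thompson's replacement theorem, for elementary abelian subgroups. -/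
theorem replacement_ab (hS : IsPGroup p S) (hB : B ⊴ S) (hBe : IsElementaryAbelian p B)
    (hA : A ∈ AE p S) (hn : ¬ B ≤ 𝐍(A)) :
    ∃ A' ∈ AE p S, A ⊓ B < A' ⊓ B ∧ A' ≤ 𝐍(A) := by
  have hAe : IsElementaryAbelian p A := hA.2.1
  have nB : A ≤ 𝐍(B) := hA.1.trans hB.norm
  obtain ⟨x, hxB, hxN, hxA⟩ : ∃ x ∈ B, x ∈ 𝐍((A ⊔ B) ⊓ 𝐍(A)) ∧ x ∉ 𝐍(A) := by
    obtain ⟨y, hy, hyN, hy'⟩ := exists_mem_normalizer_not_mem (hS.to_le (sup_le hA.1 hB.le))
      (inf_lt_left.2 fun h => hn (le_sup_right.trans h) : (A ⊔ B) ⊓ 𝐍(A) < A ⊔ B)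
    obtain ⟨a, ha, x, hx, rfl⟩ := (mem_sup_of_norm_left nB).1 hy
    have ha' : a ∈ (A ⊔ B) ⊓ 𝐍(A) := ⟨mem_sup_left ha, le_normalizer ha⟩
    exact ⟨x, hx, (mul_mem_cancel_left (le_normalizer ha')).1 hyN,
      fun h => hy' ⟨hy, mul_mem ha'.2 h⟩⟩
  have hφB : ∀ a ∈ A, ⁅x, a⁆ ∈ B := fun a ha => comm_le_left nB (commutator_mem_commutator hxB ha)
  have hφN : ∀ a ∈ A, ⁅x, a⁆ ∈ 𝐍(A) := fun a ha =>
    mul_mem (conj_mem_of_mem_normalizer hxN ⟨mem_sup_left ha, le_normalizer ha⟩).2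
      (le_normalizer (inv_mem ha))
  have hφ : ∀ a b : G, ⁅x, a * b⁆ = ⁅x, a⁆ * (a * ⁅x, b⁆ * a⁻¹) := fun a b => by
    simp only [commutatorElement_def]; group
  have hcomm : ∀ a ∈ A, ∀ b ∈ A, ⁅x, a⁆ * ⁅x, b⁆ = ⁅x, b⁆ * ⁅x, a⁆ := fun a ha b hb =>
    hBe.mul_comm (hφB a ha) (hφB b hb)
  set M := closure {y | ∃ a ∈ A, y = ⁅x, a⁆} with hM
  have hφM : ∀ a ∈ A, ⁅x, a⁆ ∈ M := fun a ha => subset_closure ⟨a, ha, rfl⟩
  have hMB : M ≤ B := (closure_le _).2 (by rintro _ ⟨a, ha, rfl⟩; exact hφB a ha)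
  have hMN : M ≤ 𝐍(A) := (closure_le _).2 (by rintro _ ⟨a, ha, rfl⟩; exact hφN a ha)
  have hcM : ∀ c : G, (∀ a ∈ A, ⁅x, a⁆ * c = c * ⁅x, a⁆) → c ∈ 𝐂(M) := fun c hc =>
    mem_cent_iff_le_cent1.2 ((closure_le _).2 (by rintro _ ⟨a, ha, rfl⟩; exact mem_cent1_iff.2 (hc a ha)))
  have hMe : IsElementaryAbelian p M := hBe.mono hMB
  have hAB : A ⊓ B ≤ A ⊓ 𝐂(M) := fun c hc => ⟨hc.1, hcM c fun a ha => hBe.mul_comm (hφB a ha) hc.2⟩
  have hker : ∀ a ∈ A, ⁅x, a⁆ ∈ A → a ∈ 𝐂(M) := fun a ha h => hcM a fun b hb => by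
    have h1 := hφ a b
    rw [hAe.mul_comm ha hb, hφ, hAe.mul_comm hb h, mul_inv_cancel_right, hcomm b hb a ha,
      mul_right_inj] at h1
    rw [← mul_inv_eq_iff_eq_mul.1 h1.symm]
  refine ⟨M ⊔ (A ⊓ 𝐂(M)), mem_AE_of_card hA (sup_le (hMB.trans hB.le) (inf_le_left.trans hA.1))
    (hMe.sup (hAe.mono inf_le_left) inf_le_right) ?_, ?_, sup_le hMN (inf_le_left.trans le_normalizer)⟩
  · have c1 := card_sup_mul_card_inf (A := M) (B := A ⊓ 𝐂(M)) (Or.inl (norms_of_cents inf_le_right))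
    have c2 := card_inf_mul_relIndex 𝐂(M) A
    have c3 := card_inf_mul_relIndex A M
    have c4 : Nat.card ↥(M ⊓ (A ⊓ 𝐂(M))) ≤ Nat.card ↥(A ⊓ M) :=
      card_le_of_le' (le_inf (inf_le_right.trans inf_le_left) inf_le_left)
    have c5 : 𝐂(M).relIndex A ≤ A.relIndex M := by
      refine Nat.card_le_card_of_injective
        (fun q : A ⧸ 𝐂(M).subgroupOf A => ((⟨⁅x, q.out⁆, hφM _ q.out.2⟩ : M) : M ⧸ A.subgroupOf M))
        fun q r h => ?_
      have h1 : ⁅x, (q.out : G)⁆⁻¹ * ⁅x, (r.out : G)⁆ ∈ A :=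
        mem_subgroupOf.1 (QuotientGroup.eq.1 h)
      have h3 := hφ q.out ((q.out : G)⁻¹ * r.out)
      rw [mul_inv_cancel_left] at h3
      rw [h3, inv_mul_cancel_left, mul_mem_cancel_right (inv_mem q.out.2),
        mul_mem_cancel_left q.out.2] at h1
      rw [← q.out_eq, ← r.out_eq]
      exact QuotientGroup.eq.2 (hker _ (mul_mem (inv_mem q.out.2) r.out.2) h1)
    rw [inf_comm 𝐂(M)] at c2
    have c6 := card_pos' (A ⊓ M)
    rw [← c3] at c1
    rw [← c2]
    refine Nat.le_of_mul_le_mul_right ?_ c6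
    calc _ ≤ Nat.card ↥(A ⊓ 𝐂(M)) * A.relIndex M * Nat.card ↥(A ⊓ M) := by gcongr
      _ = _ := by rw [mul_comm, mul_comm (Nat.card ↥(A ⊓ 𝐂(M))), ← mul_assoc, ← c1]
      _ ≤ _ := Nat.mul_le_mul_left _ c4
  · refine lt_of_le_of_ne (le_inf (hAB.trans le_sup_right) inf_le_right) fun h => hxA ?_
    have h1 : M ≤ A := (le_inf le_sup_left hMB).trans (h.ge.trans inf_le_left)
    refine mem_normalizer_of_cj_le (cj_le_iff'.2 fun a ha => ?_)
    exact (mul_mem_cancel_right (inv_mem ha)).1 (h1 (hφM a ha))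

theorem map_thompson {S : Subgroup K} (h : ∀ E ∈ AE p (S.map K.subtype), E = A) :
    (thompsonSubgroupOf p S).map K.subtype = A := by
  have k : ∀ E ∈ AE p S, E.map K.subtype = A := fun E hE => by
    obtain ⟨h1, h2, h3⟩ := mem_AE_iff.1 hE
    refine h _ (mem_AE_iff.2 ⟨map_mono h1, h2.map _, fun B h4 h5 => ?_⟩)
    rw [card_map_subtype, ← card_subgroupOf_of_le (h4.trans (map_subtype_le _))]
    exact h3 _ (by rwa [← map_le_map_iff_of_injective K.subtype_injective,
      map_subgroupOf_eq_of_le (h4.trans (map_subtype_le _))]) (h5.subgroupOf K)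
  rw [thompsonSubgroupOf_eq]
  refine le_antisymm (map_le_iff_le_comap.2 (sSup_le fun E hE => map_le_iff_le_comap.1 (k E hE).le)) ?_
  obtain ⟨E, hE⟩ := exists_elem_pRank p S
  exact (k E hE).ge.trans (map_mono (le_Je hE))

end Repl

variable {G : Type*} [Group G] {D B : Set G} {T K : Subgroup G} {a b c d e g s t x y z : G}
  {l : List G} {n : ℕ}

theorem elem_clique (hD : Closed D) (hB : B ⊆ D) (hc : ∀ a ∈ B, ∀ b ∈ B, Commute a b) :
    IsElementaryAbelian 2 (closure B) :=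
  ⟨⟨⟨fun x y => Subtype.ext (commute_of_mem_closure' hc x.2 y.2)⟩⟩, fun x hx => by
    rw [pow_two, sq_of_clique hD hB hc hx]⟩

theorem Base.mem_of_rel (hB : Base D B) (hD : Closed D) (hl : Cq D l) (h3 : l.length ≤ 3)
    (hc : ∀ b ∈ B, Commute l.prod b) : ∀ x ∈ l, x ∈ B := fun x hx =>
  hB.max x (hl.mem x hx) fun b hb => (hl.fix_iff hD h3 (hB.sub hb)).1 (hc b hb) x hx

theorem Base.complete (hB : Base D B) (hD : Closed D) {p q : List G} (hr : Rl D (p ++ q))
    (h3 : q.length ≤ 3) (hp : ∀ x ∈ p, x ∈ B) : ∀ x ∈ q, x ∈ B :=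
  Base.mem_of_rel hB hD hr.1.right h3 fun b hb => by
    have := (Commute.list_prod_left _ _ fun x hx => hB.comm x (hp x hx) b hb).inv_left.mul_left
      (CA.Fi.mem_cent_iff.1 hr.2 b (hB.sub hb))
    rwa [List.prod_append, inv_mul_cancel_left] at this

/-- no element induces a transposition on a base -/
theorem Base.no_swap [Finite G] (hB : Base D B) (hD : Closed D) (ht : Thr D (n + 2))
    (hu : Uq D (n + 2)) (hn : n + 5 < B.ncard) (ha : a ∈ B) (hb : b ∈ B) (hab : a ≠ b)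
    (hg : ∀ x ∈ B, x ≠ a → x ≠ b → Commute g x) (hgD : g ∈ closure D) : Commute g a := by
  classical
  have cq : ∀ l : List G, l.Nodup → (∀ x ∈ l, x ∈ B) → Cq D l := fun l h1 h2 =>
    ⟨h1, fun x hx => hB.sub (h2 x hx), fun x hx y hy => hB.comm x (h2 x hx) y (h2 y hy)⟩
  have ex : ∀ l : List G, l.length < B.ncard → ∃ y ∈ B, y ∉ l := fun l hl => by
    obtain ⟨y, h1, h2⟩ := Set.exists_mem_notMem_of_ncard_lt_ncard (s := (l.toFinset : Set G)) (t := B)
      (by rw [Set.ncard_coe_finset]; exact (List.toFinset_card_le l).trans_lt hl)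
    exact ⟨y, h1, by simpa using h2⟩
  have ext : ∀ k ≤ n, ∃ p : List G, p.length = k ∧ (a :: b :: p).Nodup ∧ ∀ x ∈ p, x ∈ B := by
    intro k hk
    induction k with
    | zero => exact ⟨[], rfl, by simp [hab], by simp⟩
    | succ k ih =>
      obtain ⟨p, h1, h2, h3⟩ := ih (by omega)
      obtain ⟨y, y1, y2⟩ := ex (a :: b :: p) (by simp; omega)
      refine ⟨y :: p, by simp [h1], ((List.nodup_cons.2 ⟨y2, h2⟩).perm ?_), by simpa [y1] using h3⟩
      exact (List.Perm.swap _ _ _).trans ((List.Perm.swap _ _ _).cons _)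
  obtain ⟨p, p1, p2, p3⟩ := ext n le_rfl
  obtain ⟨q, q3, r⟩ := ht _ (cq _ p2 (by simpa [ha, hb] using p3)) (by simp [p1])
  obtain ⟨y, y1, y2⟩ := ex (a :: b :: p ++ q) (by simp [p1, q3]; omega)
  simp only [List.cons_append, List.mem_cons, List.mem_append, not_or] at y2
  have n2 : (a :: y :: p).Nodup := by
    simp only [List.nodup_cons, List.mem_cons, not_or] at p2 ⊢
    exact ⟨⟨Ne.symm y2.1, p2.1.2⟩, y2.2.2.1, p2.2.2⟩
  obtain ⟨q', q3', r'⟩ := ht _ (cq _ n2 (by simpa [ha, y1] using p3)) (by simp [p1])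
  have qB := Base.complete hB hD r' q3'.le (by simpa [ha, y1] using p3)
  have hbq : b ∉ q' := fun k => by
    have P : (a :: y :: p ++ q').Perm (a :: b :: p ++ y :: q'.erase b) := by
      refine List.Perm.cons _ ?_
      refine ((List.perm_cons_erase k).append_left p |>.cons y).trans ?_
      exact ((List.perm_middle.cons y).trans (List.Perm.swap _ _ _)).trans
        (List.perm_middle.symm.cons b)
    exact y2.2.2.2 ((hu _ _ q (by simp [p1]) (by simp [List.length_erase_of_mem k, q3']) q3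
      (r'.perm P) r y).1 List.mem_cons_self)
  have k : Commute g (y :: p ++ q').prod := Commute.list_prod_right _ _ fun x hx => by
    refine hg x ?_ (fun e => (List.nodup_cons.1 r'.1.nodup).1 (e ▸ hx)) ?_
    · simp only [List.cons_append, List.mem_cons, List.mem_append] at hx
      rcases hx with rfl | hx | hx
      exacts [y1, p3 x hx, qB x hx]
    · rintro rfl
      simp only [List.cons_append, List.mem_cons, List.mem_append] at hx
      rcases hx with e | hx | hx
      exacts [y2.2.1 e.symm, (List.nodup_cons.1 (List.nodup_cons.1 p2).2).1 hx, hbq hx]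
  have := (commute_of_cent r'.2 hgD).symm.mul_right k.inv_right
  rwa [List.cons_append, List.prod_cons, mul_inv_cancel_right] at this

instance instFactTwoJT : Fact (Nat.Prime 2) := ⟨Nat.prime_two⟩

section

variable [Finite G] (hD : IsThreeTranspositionGroup D) (hZ : center G = ⊥) (hi : InvK D 3)
  (hB : Base D B)
include hD hZ hi hB

theorem Base.invol (h2 : g * g = 1) (hc : ∀ b ∈ B, Commute g b) :
    ∃ l, Cq D l ∧ l.length ≤ 3 ∧ (∀ x ∈ l, x ∈ B) ∧ l.prod = g := by
  obtain ⟨l, h1, h3, rfl⟩ := hi.exists_prod hD hZ h2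
  exact ⟨l, h1, h3, Base.mem_of_rel hB (closed_of_group hD) h1 h3 hc, rfl⟩

theorem Base.card_le : Nat.card (closure B) ≤
    B.ncard.choose 0 + B.ncard.choose 1 + B.ncard.choose 2 + B.ncard.choose 3 := by
  classical
  have hD' := closed_of_group hD
  let P := fun k => B.toFinite.toFinset.powersetCard k
  have : (closure B : Set G) ⊆ ((P 0 ∪ P 1 ∪ P 2 ∪ P 3).image fun s => s.toList.prod : Finset G) :=
    fun g hg => by
      obtain ⟨l, h1, h3, h4, rfl⟩ := Base.invol hD hZ hi hB (sq_of_clique hD' hB.sub hB.comm hg)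
        fun b hb => commute_of_mem_closure' hB.comm hg (subset_closure hb)
      have e : l.toFinset.card = l.length := List.toFinset_card_of_nodup h1.nodup
      have m : l.toFinset ∈ P l.length := Finset.mem_powersetCard.2 ⟨fun x hx => by
        simpa using h4 x (by simpa using hx), e⟩
      refine Finset.mem_coe.2 (Finset.mem_image.2 ⟨l.toFinset,  ?_,
        (h1.prod_perm (List.toFinset_toList h1.nodup).symm).symm⟩)
      simp only [Finset.mem_union]
      generalize l.length = k at h3 m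
      interval_cases k <;> tauto
  have k := Set.ncard_le_ncard this
  rw [Set.ncard_coe_finset] at k
  refine le_trans k (Finset.card_image_le.trans ?_)
  have e : ∀ k, (P k).card = B.ncard.choose k := fun k => by
    rw [Finset.card_powersetCard, Set.ncard_eq_toFinset_card B]
  rw [← e, ← e, ← e, ← e]
  exact (Finset.card_union_le _ _).trans (Nat.add_le_add_right ((Finset.card_union_le _ _).trans
    (Nat.add_le_add_right (Finset.card_union_le _ _) _)) _)

omit hZ hi in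
theorem Base.le_card {m : ℕ} (h : ∀ p, Cq D p → p.length = 3 → ∃ Q : List (List G), Q.length ≤ m ∧
    ∀ l, Cq D l → l.length = 3 → l.prod = p.prod → ∃ q ∈ Q, ∀ x, x ∈ l ↔ x ∈ q) :
    B.ncard.choose 3 ≤ m * Nat.card (closure B) := by
  classical
  have cq : ∀ s ∈ B.toFinite.toFinset.powersetCard 3, Cq D s.toList ∧ s.toList.length = 3 ∧
      ∀ x ∈ s.toList, x ∈ B := fun s hs => by
    obtain ⟨h1, h2⟩ := Finset.mem_powersetCard.1 hs
    have k : ∀ x ∈ s.toList, x ∈ B := fun x hx => by simpa using h1 (Finset.mem_toList.1 hx)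
    exact ⟨⟨s.nodup_toList, fun x hx => hB.sub (k x hx),
      fun x hx y hy => hB.comm x (k x hx) y (k y hy)⟩, by simpa, k⟩
  have := Finset.card_le_mul_card_image (f := fun s : Finset G => s.toList.prod)
    (B.toFinite.toFinset.powersetCard 3) m fun x hx => by
      obtain ⟨s, hs, rfl⟩ := Finset.mem_image.1 hx
      obtain ⟨Q, hm, hq⟩ := h _ (cq s hs).1 (cq s hs).2.1
      refine (Finset.card_le_card (t := (Q.map List.toFinset).toFinset) fun u hu => ?_).trans
        ((List.toFinset_card_le _).trans (by simpa))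
      obtain ⟨h1, h2⟩ := Finset.mem_filter.1 hu
      obtain ⟨q, k1, k⟩ := hq _ (cq u h1).1 (cq u h1).2.1 h2
      exact List.mem_toFinset.2 (List.mem_map.2 ⟨q, k1, Finset.ext fun x => by simpa using (k x).symm⟩)
  rw [Finset.card_powersetCard, ← Set.ncard_eq_toFinset_card B] at this
  refine this.trans (Nat.mul_le_mul_left _ ?_)
  rw [← Set.ncard_coe_finset]
  refine Set.ncard_le_ncard (t := (closure B : Set G)) fun x hx => ?_
  obtain ⟨s, hs, rfl⟩ := Finset.mem_image.1 hx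
  exact list_prod_mem fun y hy => subset_closure ((cq s hs).2.2 y hy)

/-- the base generates the unique elementary abelian subgroup of maximal order -/
theorem Base.ae_eq (hn : NoRel D 4) (ht : Thr D (n + 2)) (hu : Uq D (n + 2)) (hc : n + 5 < B.ncard)
    (hT : IsPGroup 2 T) (hBT : ∀ x, x ∈ B ↔ x ∈ D ∧ x ∈ T) : ∀ E ∈ AE 2 T, E = closure B := by
  have hD' := closed_of_group hD
  have hA := elem_clique hD' hB.sub hB.comm
  have cB : ∀ g ∈ T, ∀ x ∈ B, g * x * g⁻¹ ∈ B := fun g hg x hx => (hBT _).2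
    ⟨hD.2.1 g x (hB.sub hx), mul_mem (mul_mem hg ((hBT x).1 hx).2) (inv_mem hg)⟩
  have hAT : closure B ⊴ T := ⟨(closure_le _).2 fun x hx => ((hBT x).1 hx).2, fun g hg =>
    mem_normalizer_fintype fun x hx => CA.Fi.conj_mem_closure (cB g hg) hx⟩
  by_contra hne
  push Not at hne
  obtain ⟨E, ⟨hE, hEA⟩, hmax⟩ := Set.exists_max_image {E | E ∈ AE 2 T ∧ E ≠ closure B}
    (fun E => Nat.card (E ⊓ closure B : Subgroup G)) (Set.toFinite _) hne
  have key : ∀ E' ∈ AE 2 T, E ⊓ closure B < E' ⊓ closure B → E' = closure B := fun E' h1 h2 =>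
    by_contra fun h3 => (hmax E' ⟨h1, h3⟩).not_gt (card_lt_of_lt' h2)
  have nA : closure B ≤ 𝐍(E) := by_contra fun h => by
    obtain ⟨E', h1, h2, h3⟩ := replacement_ab hT hAT hA hE h
    exact h (key E' h1 h2 ▸ h3)
  have hEe : IsElementaryAbelian 2 E := hE.2.1
  have sq : ∀ g ∈ E, g * g = 1 := fun g hg => by rw [← pow_two, hEe.2 g hg]
  obtain ⟨g, hg, hgA⟩ : ∃ g ∈ E, g ∉ closure B := by_contra fun h => by
    push Not at h
    exact hEA (eq_of_le_of_card_ge h ((mem_AE_iff.1 hE).2.2 _ hAT.le hA))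
  obtain ⟨a, ha, hga⟩ : ∃ a ∈ B, ¬ Commute g a := by_contra fun h => by
    push Not at h
    obtain ⟨l, -, -, h4, rfl⟩ := Base.invol hD hZ hi hB (sq g hg) h
    exact hgA (list_prod_mem fun y hy => subset_closure (h4 y hy))
  have two : ∀ a ∈ B, ¬ Commute g a → Cq D [a, g * a * g⁻¹] := fun a ha h =>
    cq_two.2 ⟨hB.sub ha, hB.sub (cB g (hE.1 hg) a ha), fun e => h (commute_of_conj e),
      hB.comm a ha _ (cB g (hE.1 hg) a ha)⟩
  have inE : a * (g * a * g⁻¹) ∈ E := by
    have := mul_mem (conj_mem_of_mem_normalizer (nA (subset_closure ha)) hg) (inv_mem hg)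
    rwa [hD'.inv' (hB.sub ha), mul_assoc a, mul_assoc a] at this
  have idx : (𝐂[a].subgroupOf E).index = 2 := index_eq_two_iff.2 ⟨⟨g, hg⟩, fun e => by
    simp only [mem_subgroupOf, mem_cent_one, coe_mul]
    rcases NoRel.pair hn hD' (conj_cq_two hD' (mem_closure_of_group hD e.1) (two a ha hga))
      (two a ha hga) (Eq.trans (by group) (conj_of_commute (hEe.mul_comm e.2 inE))) with k | k
    · exact Or.inr ⟨commute_of_conj k.1, fun h => hga (by
        simpa using (commute_of_conj k.1).inv_left.mul_left h)⟩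
    · exact Or.inl ⟨commute_of_conj (Eq.trans (by group) k.2), fun h => hga (commute_of_conj
        (k.1.symm.trans (conj_of_commute h)))⟩⟩
  have aE : a ∉ E := fun h => hga (hEe.mul_comm hg h)
  have lt : E ⊓ 𝐂[a] < (E ⊓ 𝐂[a]) ⊔ zpowers a :=
    lt_of_le_of_ne le_sup_left fun e => aE (e.ge (mem_sup_right (mem_zpowers a))).1
  have zc : zpowers a ≤ 𝐂(E ⊓ 𝐂[a]) := zpowers_le.2 fun x hx => mem_cent_one.1 hx.2
  have hE' : IsElementaryAbelian 2 ((E ⊓ 𝐂[a]) ⊔ zpowers a) :=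
    (hEe.mono inf_le_left).sup (hA.mono (zpowers_le.2 (subset_closure ha))) zc
  have e1 := key _ (mem_AE_of_card hE (sup_le (inf_le_left.trans hE.1)
    (zpowers_le.2 ((hBT a).1 ha).2)) hE' (by
      have c1 := card_inf_mul_relIndex 𝐂[a] E
      obtain ⟨k, hk⟩ := card_dvd_of_le lt.le
      have c2 := card_lt_of_lt' lt
      rw [relIndex, idx, inf_comm] at c1
      rw [← c1, hk]
      refine Nat.mul_le_mul_left _ (by_contra fun h => ?_)
      rw [hk] at c2
      have : k ≤ 1 := by omega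
      nlinarith))
    (lt_of_le_of_ne (le_inf (fun x hx => mem_sup_left ⟨hx.1, mem_cent_one.2
      (hA.mul_comm hx.2 (subset_closure ha))⟩) inf_le_right) fun e =>
        aE (e.ge ⟨mem_sup_right (mem_zpowers a), subset_closure ha⟩).1)
  refine hga (Base.no_swap hB hD' ht hu hc ha (cB g (hE.1 hg) a ha)
    (cq_two.1 (two a ha hga)).2.2.1.symm (fun b hb h1 h2 => by_contra fun hgb => ?_)
    (mem_closure_of_group hD g))
  obtain ⟨c, hc, z, hz, e⟩ := (mem_sup_of_norm_right (norms_of_cents zc)).1 (e1.ge (subset_closure hb))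
  have gc : Commute g c := hEe.mul_comm hg hc.1
  rcases (mem_zpowers_invol (hD'.sq' (hB.sub ha))).1 hz with rfl | rfl
  · exact hgb (by rw [← e, mul_one]; exact gc)
  · rcases NoRel.pair hn hD' (two b hb hgb) (two z ha hga) (by
      rw [← e, show g * (c * z) * g⁻¹ = g * c * g⁻¹ * (g * z * g⁻¹) by group, conj_of_commute gc,
        mul_assoc, (mem_cent_one.1 hc.2).symm.left_comm, ← mul_assoc, sq c hc.1, one_mul]) with k | k
    exacts [h1 k.1, h2 k.1]

omit hZ hi in
theorem Base.trans (ht : Tr D) (ha : a ∈ B) (hb : b ∈ B) :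
    ∃ n ∈ normalizer (closure B : Set G), n * a * n⁻¹ = b := by
  have hD' := closed_of_group hD
  obtain ⟨g, -, e⟩ := ht a (hB.sub ha) b (hB.sub hb)
  obtain ⟨k, hk, hc⟩ := exists_conj_clique (hD'.dd b) (E := B \ {b})
    (F := (fun x => g * x * g⁻¹) '' (B \ {a})) (fun x hx => ⟨hB.sub hx.1, hx.2, hB.comm b hb x hx.1⟩)
    (fun x hx y hy => hB.comm x hx.1 y hy.1) (by
      rintro _ ⟨x, hx, rfl⟩
      exact ⟨hD.2.1 g x (hB.sub hx.1), fun e' => hx.2 ((TT.conj_inj g).1 (e'.trans e.symm)),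
        e ▸ (TT.commute_conj_iff g).2 (hB.comm a ha x hx.1)⟩) (by
      rintro _ ⟨x, hx, rfl⟩ _ ⟨y, hy, rfl⟩
      exact (TT.commute_conj_iff g).2 (hB.comm x hx.1 y hy.1))
  have kb := conj_of_commute (commute_of_cent self_cent_dd hk).symm
  have e1 : k * g * a * (k * g)⁻¹ = b := by rw [← kb, ← e]; group
  refine ⟨k * g, mem_normalizer_fintype fun x hx => CA.Fi.conj_mem_closure (fun y hy => ?_) hx, e1⟩
  by_cases e2 : y = a
  · rwa [e2, e1]
  refine hB.max _ (hD.2.1 _ y (hB.sub hy)) fun c hc' => ?_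
  by_cases e3 : c = b
  · rw [e3, ← e1]; exact (TT.commute_conj_iff _).2 (hB.comm y hy a ha)
  · have := (hc c ⟨hc', e3⟩ _ ⟨y, ⟨hy, e2⟩, rfl⟩).symm
    rwa [show k * (g * y * g⁻¹) * k⁻¹ = k * g * y * (k * g)⁻¹ by group] at this

omit hZ hi in
theorem Base.sylow (hK : closure B ≤ K) (S : Sylow 2 K) :
    Base D {x | x ∈ D ∧ x ∈ (S : Subgroup K).map K.subtype} := by
  have hD' := closed_of_group hD
  have hc : ∀ a ∈ {x | x ∈ D ∧ x ∈ (S : Subgroup K).map K.subtype},
      ∀ b ∈ {x | x ∈ D ∧ x ∈ (S : Subgroup K).map K.subtype}, Commute a b := fun a ha b hb => by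
    obtain ⟨k, hk⟩ := S.isPGroup'.map K.subtype ⟨_, mul_mem ha.2 hb.2⟩
    exact hD'.commute_of_pow ha.1 hb.1 (congrArg Subtype.val hk)
  refine base_of_ncard (fun _ h => h.1) hc ((TT.ncard_le_width (fun _ h => h.1) hc).antisymm ?_)
  obtain ⟨P, hP⟩ := ((isPGroup_clique hD' hB.sub hB.comm).comap_subtype (K := K)).exists_le_sylow
  obtain ⟨g, rfl⟩ := MulAction.exists_smul_eq K P S
  rw [← hB.ncard hD', ← Set.ncard_image_of_injective B (f := fun x => g.1 * x * g.1⁻¹)
    fun _ _ => (TT.conj_inj _).1]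
  refine Set.ncard_le_ncard ?_
  rintro _ ⟨x, hx, rfl⟩
  exact ⟨hD.2.1 _ x (hB.sub hx), g * ⟨x, hK (subset_closure hx)⟩ * g⁻¹,
    smul_mem_pointwise_smul _ (MulAut.conj g) _ (hP (subset_closure hx)), rfl⟩

end

theorem eq_pow_of_bounds {m k : ℕ} {A : Subgroup G} [Finite G] (h : IsPGroup 2 A)
    (h1 : 2 ^ k < Nat.card A) (h2 : Nat.card A < 2 ^ (k + 2)) : Nat.card A = 2 ^ (k + 1) := by
  obtain ⟨j, hj⟩ := IsPGroup.iff_card.1 h
  rw [hj] at h1 h2 ⊢
  have := (Nat.pow_lt_pow_iff_right one_lt_two).1 h1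
  have := (Nat.pow_lt_pow_iff_right one_lt_two).1 h2
  congr 1; omega

section

variable [Finite G] (hD : IsThreeTranspositionGroup D) (hZ : center G = ⊥) (hB : Base D B)
include hD hZ hB

theorem T22.card_base (h : T22 D) : Nat.card (closure B) = 2 ^ 10 := by
  have h1 := Base.card_le hD hZ h.invK hB
  have h2 := Base.le_card hD hB (m := 2) fun p hp h3 =>
    let ⟨q, q3, r⟩ := h.thr p hp h3; ⟨[p, q], le_rfl, fun l hl l3 e => by
      simpa using h.fact_three hD hZ h3 q3 r hl l3 e⟩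
  rw [h.base_card hB] at h1 h2
  norm_num [Nat.choose] at h1 h2
  exact eq_pow_of_bounds (m := 0) (isPGroup_clique h.cl hB.sub hB.comm) (by omega) (by omega)

theorem T23.card_base (h : T23 D) : Nat.card (closure B) = 2 ^ 11 := by
  have h1 := Base.card_le hD hZ h.invK hB
  have h2 := Base.le_card hD hB (m := 1) fun p hp h3 => ⟨[p], le_rfl, fun l hl l3 e => by
    simpa using h.norel.iff_of_eq hD hZ hl hp l3.le (by omega) e⟩
  rw [hB.ncard h.cl, h.width] at h1 h2
  norm_num [Nat.choose] at h1 h2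
  exact eq_pow_of_bounds (m := 0) (isPGroup_clique h.cl hB.sub hB.comm) (by omega) (by omega)

end

theorem thompson_cent [Finite G] (hD : IsThreeTranspositionClass (conjugatesOf d))
    (hZ : center G = ⊥) (hi : InvK (conjugatesOf d) 3) (hn : NoRel (conjugatesOf d) 4)
    (ht : Thr (conjugatesOf d) (n + 2)) (hu : Uq (conjugatesOf d) (n + 2))
    (hc : n + 5 < commutingWidth (conjugatesOf d)) (tr : Tr (conjugatesOf d))
    (S : Sylow 2 (centralizer ({d} : Set G))) :
    ∃ B, Base (conjugatesOf d) B ∧ (thompsonSubgroupOf 2 (S : Subgroup (centralizer ({d} : Set G)))).map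
      (centralizer ({d} : Set G)).subtype = closure B ∧ IsElementaryAbelian 2 (closure B) ∧
      {x : G | x ∈ closure B ∧ IsConj d x} = B ∧ ∀ x ∈ closure B, ∀ y ∈ closure B, IsConj d x →
        IsConj d y → ∃ n ∈ normalizer (closure B : Set G), n * x * n⁻¹ = y := by
  have hG := TT.class_group hD
  have hD' := closed_of_group hG
  obtain ⟨B0, h0, h1⟩ := exists_base (S := conjugatesOf d) (E := {d}) (Set.toFinite _)
    (Set.singleton_subset_iff.2 (IsConj.refl d)) (by simp)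
  have hB := Base.sylow hG h0 ((closure_le _).2 fun x hx =>
    mem_cent_one.2 (h0.comm x hx d (h1 rfl))) S
  generalize hE : {x | x ∈ conjugatesOf d ∧ x ∈ (S : Subgroup (centralizer ({d} : Set G))).map
    (centralizer ({d} : Set G)).subtype} = B at hB
  have k : ∀ x ∈ closure B, IsConj d x → x ∈ B := fun x hx hc =>
    hB.max x hc fun b hb => commute_of_mem_closure' hB.comm hx (subset_closure hb)
  exact ⟨B, hB, map_thompson (Base.ae_eq hG hZ hi hB hn ht hu (by rwa [hB.ncard hD'])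
    (S.isPGroup'.map _) fun x => by rw [← hE]; rfl), elem_clique hD' hB.sub hB.comm,
    Set.ext fun x => ⟨fun h => k x h.1 h.2, fun h => ⟨subset_closure h, hB.sub h⟩⟩,
    fun x hx y hy h1 h2 => Base.trans hG hB tr (k x hx h1) (k y hy h2)⟩

theorem thompson_sylow [Finite G] (hD : IsThreeTranspositionGroup D)
    (hZ : center G = ⊥) (hi : InvK D 3) (hn : NoRel D 4) (ht : Thr D (n + 2)) (hu : Uq D (n + 2))
    (hc : n + 5 < commutingWidth D) (T : Sylow 2 G) :
    Base D {x : G | x ∈ D ∧ x ∈ (T : Subgroup G)} ∧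
      closure {x : G | x ∈ D ∧ x ∈ (T : Subgroup G)} = thompsonSubgroupOf 2 (T : Subgroup G) := by
  obtain ⟨B0, h0, -⟩ := exists_base (S := D) (E := ∅) (Set.toFinite _) (by simp) (by simp)
  have hB := Base.sylow hD h0 le_top (T.subtype le_top)
  rw [Sylow.coe_subtype, map_subgroupOf_eq_of_le le_top] at hB
  have k := Base.ae_eq hD hZ hi hB hn ht hu (by rwa [hB.ncard (closed_of_group hD)]) T.isPGroup'
    fun x => Iff.rfl
  refine ⟨hB, ?_⟩
  rw [thompsonSubgroupOf_eq]
  obtain ⟨E, hE⟩ := exists_elem_pRank 2 (T : Subgroup G)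
  exact le_antisymm ((k E hE).ge.trans (le_Je hE)) (sSup_le fun E hE => (k E hE).le)

end CA.Tl
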